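-- helper82: SU_4(2) is generated by two elements (block [III] of the SUG project, S2412).
import Mathlib
import Cfsg.Prelude.Def_ClassicalGeometry
import Cfsg.Agent.Lib.Helper13.SUGen3
import Cfsg.Agent.Lib.Helper13.UTransvComm

set_option autoImplicit false

namespace Cfsg.Agent.Lib.Helper82.SUG

open Matrix Cfsg.Agent.Lib.Helper13 Cfsg.Agent.Lib.Helper45

universe u

section Four2

set_option linter.unusedSectionVars false

variable {F : Type u} [Field F] [Fintype F]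

/-- the matrix of an element of `SU 4 F 2`. -/
def sm (g : ↥(Cfsg.SU 4 F 2)) : Matrix (Fin 4) (Fin 4) F :=
  ((g : Matrix.SpecialLinearGroup (Fin 4) F) : Matrix (Fin 4) (Fin 4) F)

theorem sm_mul (g h : ↥(Cfsg.SU 4 F 2)) : sm (g * h) = sm g * sm h := rfl

theorem sm_one : sm (1 : ↥(Cfsg.SU 4 F 2)) = 1 := rfl

theorem sm_iso (g : ↥(Cfsg.SU 4 F 2)) : IsHermIso 4 F 2 (sm g) := g.2

theorem sm_det (g : ↥(Cfsg.SU 4 F 2)) : (sm g).det = 1 := g.1.2

theorem two_eq_zero4 (hF : Fintype.card F = 2 ^ 2) : (2 : F) = 0 := by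
  have h := FiniteField.cast_card_eq_zero F
  rw [hF] at h
  have h4 : (2 : F) ^ 2 = 0 := by exact_mod_cast h
  exact pow_eq_zero_iff (n := 2) (by norm_num) |>.mp h4

theorem cube_eq_one4 (hF : Fintype.card F = 2 ^ 2) {x : F} (hx : x ≠ 0) : x ^ 3 = 1 := by
  have h := FiniteField.pow_card_sub_one_eq_one x hx
  rw [hF] at h
  exact h

theorem exists_omega4 (hF : Fintype.card F = 2 ^ 2) : ∃ ω : F, ω ^ 2 + ω + 1 = 0 := by
  have h3 : 2 < Fintype.card F := by rw [hF]; norm_num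
  obtain ⟨a, b, c, hab, hac, hbc⟩ := Fintype.two_lt_card_iff.mp h3
  have key : ∀ x : F, x ≠ 0 → x ≠ 1 → x ^ 2 + x + 1 = 0 := by
    intro x hx0 hx1
    have h := cube_eq_one4 hF hx0
    have h' : (x - 1) * (x ^ 2 + x + 1) = 0 := by linear_combination h
    rcases mul_eq_zero.mp h' with h | h
    · exact absurd (sub_eq_zero.mp h) hx1
    · exact h
  by_cases ha0 : a = 0
  · by_cases hb1 : b = 1
    · exact ⟨c, key c (fun h => hac (ha0.trans h.symm)) (fun h => hbc (hb1.trans h.symm))⟩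
    · exact ⟨b, key b (fun h => hab (ha0.trans h.symm)) hb1⟩
  · by_cases ha1 : a = 1
    · by_cases hb0 : b = 0
      · exact ⟨c, key c (fun h => hbc (hb0.trans h.symm)) (fun h => hac (ha1.trans h.symm))⟩
      · exact ⟨b, key b hb0 (fun h => hab (ha1.trans h.symm))⟩
    · exact ⟨a, key a ha0 ha1⟩

theorem eq_one_or_omega4 (hF : Fintype.card F = 2 ^ 2) {ω : F} (hω : ω ^ 2 + ω + 1 = 0) {x : F}
    (hx : x ≠ 0) : x = 1 ∨ x = ω ∨ x = ω ^ 2 := by
  have h3 := cube_eq_one4 hF hx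
  have h : (x - 1) * ((x - ω) * (x - ω ^ 2)) = 0 := by
    linear_combination h3 + (-x ^ 2 + ω * x - ω + 1) * hω
  rcases mul_eq_zero.mp h with h | h
  · exact Or.inl (sub_eq_zero.mp h)
  · rcases mul_eq_zero.mp h with h | h
    · exact Or.inr (Or.inl (sub_eq_zero.mp h))
    · exact Or.inr (Or.inr (sub_eq_zero.mp h))

theorem vec4_eta (v : Fin 4 → F) : v = ![v 0, v 1, v 2, v 3] := by
  ext i; fin_cases i <;> rfl

theorem herm4 (a0 a1 a2 a3 b0 b1 b2 b3 : F) :
    Cfsg.hermForm 4 F 2 ![a0, a1, a2, a3] ![b0, b1, b2, b3] =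
      a0 * b0 ^ 2 + a1 * b1 ^ 2 + a2 * b2 ^ 2 + a3 * b3 ^ 2 := by
  simp [herm_def, Fin.sum_univ_four]

/-- `v` is isotropic and its transvection `T_{v,1}` lies in `K`. -/
def Cen (K : Subgroup ↥(Cfsg.SU 4 F 2)) (v : Fin 4 → F) : Prop :=
  Cfsg.hermForm 4 F 2 v v = 0 ∧ ∃ k ∈ K, sm k = Cfsg.unitaryTransvection 4 2 v 1

theorem cen_act {K : Subgroup ↥(Cfsg.SU 4 F 2)} {g : ↥(Cfsg.SU 4 F 2)} (hg : g ∈ K)
    {v : Fin 4 → F} (hv : Cen K v) : Cen K (sm g *ᵥ v) := by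
  obtain ⟨hv0, k, hk, hkv⟩ := hv
  refine ⟨by rw [sm_iso g v v, hv0], g * k * g⁻¹, K.mul_mem (K.mul_mem hg hk) (K.inv_mem hg), ?_⟩
  rw [sm_mul, sm_mul, hkv, utransv_conj (sm_iso g) v 1, Matrix.mul_assoc, ← sm_mul,
    mul_inv_cancel, sm_one, Matrix.mul_one]

theorem cen_smul (hF : Fintype.card F = 2 ^ 2) {K : Subgroup ↥(Cfsg.SU 4 F 2)} {μ : F}
    (hμ : μ ≠ 0) {v : Fin 4 → F} (hv : Cen K v) : Cen K (μ • v) := by
  obtain ⟨hv0, k, hk, hkv⟩ := hv
  refine ⟨by rw [herm_smul_left, herm_smul_right, hv0, mul_zero, mul_zero], k, hk, ?_⟩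
  rw [hkv, utransv_smul, cube_eq_one4 hF hμ, one_mul]

theorem cen_line {K : Subgroup ↥(Cfsg.SU 4 F 2)} {u v : Fin 4 → F} (hu : Cen K u)
    (hv : Cen K v) : Cen K (u + Cfsg.hermForm 4 F 2 u v • v) := by
  obtain ⟨k, hk, hkv⟩ := hv.2
  have h := cen_act hk hu
  rw [hkv, utransv_mulVec, one_mul] at h
  exact h

theorem cen_zero (K : Subgroup ↥(Cfsg.SU 4 F 2)) : Cen K (0 : Fin 4 → F) := by
  refine ⟨by simp [herm_def], 1, K.one_mem, ?_⟩
  rw [sm_one, Matrix.ext_iff_mulVec]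
  intro x
  rw [utransv_mulVec, smul_zero, add_zero, Matrix.one_mulVec]

theorem top_of_cen (hF : Fintype.card F = 2 ^ 2) (K : Subgroup ↥(Cfsg.SU 4 F 2))
    (h : ∀ v : Fin 4 → F, Cfsg.hermForm 4 F 2 v v = 0 → Cen K v) : K = ⊤ := by
  have h2 := two_eq_zero4 hF
  have key : ∀ M : Matrix (Fin 4) (Fin 4) F, InT 4 F 2 M → ∃ k ∈ K, sm k = M := by
    intro M hM
    refine Submonoid.closure_induction (motive := fun M _ => ∃ k ∈ K, sm k = M) ?_ ?_ ?_ hM
    · rintro x ⟨v, c, hv, hc, rfl⟩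
      have hc' : c * (c - 1) = 0 := by linear_combination hc - c * h2
      rcases mul_eq_zero.mp hc' with h0 | h1
      · subst h0
        exact ⟨1, K.one_mem, by rw [utransv_zero]; rfl⟩
      · have h1' : c = 1 := sub_eq_zero.mp h1
        subst h1'
        exact (h v hv).2
    · exact ⟨1, K.one_mem, rfl⟩
    · rintro x y _ _ ⟨k1, hk1, rfl⟩ ⟨k2, hk2, rfl⟩
      exact ⟨k1 * k2, K.mul_mem hk1 hk2, rfl⟩
  rw [eq_top_iff]
  intro g _
  obtain ⟨k, hk, hkg⟩ := key (sm g) (su_inT hF 4 (Or.inl le_rfl) (sm g) (sm_iso g) (sm_det g))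
  have hkg' : k = g := su_ext k g hkg
  exact hkg' ▸ hk

theorem cen_congr4 {K : Subgroup ↥(Cfsg.SU 4 F 2)} {a0 a1 a2 a3 b0 b1 b2 b3 : F}
    (h : Cen K ![a0, a1, a2, a3]) (e0 : a0 = b0) (e1 : a1 = b1) (e2 : a2 = b2) (e3 : a3 = b3) :
    Cen K ![b0, b1, b2, b3] := by
  subst e0 e1 e2 e3
  exact h

theorem cen_smul4 (hF : Fintype.card F = 2 ^ 2) {K : Subgroup ↥(Cfsg.SU 4 F 2)} {μ : F}
    (hμ : μ ≠ 0) {a0 a1 a2 a3 : F} (h : Cen K ![a0, a1, a2, a3]) :
    Cen K ![μ * a0, μ * a1, μ * a2, μ * a3] := by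
  have h' := cen_smul hF hμ h
  have e : μ • ![a0, a1, a2, a3] = ![μ * a0, μ * a1, μ * a2, μ * a3] := by
    ext i; fin_cases i <;> simp
  rw [e] at h'
  exact h'

theorem cen_line4 {K : Subgroup ↥(Cfsg.SU 4 F 2)} {a0 a1 a2 a3 b0 b1 b2 b3 : F}
    (hu : Cen K ![a0, a1, a2, a3]) (hv : Cen K ![b0, b1, b2, b3]) (h : F)
    (hh : a0 * b0 ^ 2 + a1 * b1 ^ 2 + a2 * b2 ^ 2 + a3 * b3 ^ 2 = h) :
    Cen K ![a0 + h * b0, a1 + h * b1, a2 + h * b2, a3 + h * b3] := by
  have h' := cen_line hu hv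
  rw [herm4, hh] at h'
  have e : ![a0, a1, a2, a3] + h • ![b0, b1, b2, b3] =
      ![a0 + h * b0, a1 + h * b1, a2 + h * b2, a3 + h * b3] := by
    ext i; fin_cases i <;> simp
  rw [e] at h'
  exact h'

/-- the monomial generator. -/
def Mb (ω : F) : Matrix (Fin 4) (Fin 4) F :=
  !![0, 0, ω, 0; 1, 0, 0, 0; 0, 1, 0, 0; 0, 0, 0, ω ^ 2]

theorem Mb_mulVec (ω x0 x1 x2 x3 : F) :
    Mb ω *ᵥ ![x0, x1, x2, x3] = ![ω * x2, x0, x1, ω ^ 2 * x3] := by
  ext i; fin_cases i <;> simp [Mb, Matrix.mulVec, dotProduct, Fin.sum_univ_four]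

theorem Mb_det {ω : F} (hω3 : ω ^ 3 = 1) : (Mb ω).det = 1 := by
  rw [Mb, Matrix.det_succ_row_zero]
  simp [Fin.sum_univ_succ, Matrix.det_fin_three, Fin.succAbove]
  linear_combination hω3

theorem Mb_iso {ω : F} (hω3 : ω ^ 3 = 1) : IsHermIso 4 F 2 (Mb ω) := by
  intro u v
  rw [vec4_eta u, vec4_eta v, Mb_mulVec, Mb_mulVec, herm4, herm4]
  linear_combination (u 2 * v 2 ^ 2 + (ω ^ 3 + 1) * u 3 * v 3 ^ 2) * hω3

theorem cen_all (hF : Fintype.card F = 2 ^ 2) (K : Subgroup ↥(Cfsg.SU 4 F 2)) {ω : F}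
    (hω : ω ^ 2 + ω + 1 = 0) (hw : Cen K ![1, 1, 1, 1])
    (hb : ∀ x0 x1 x2 x3 : F, Cen K ![x0, x1, x2, x3] → Cen K ![ω * x2, x0, x1, ω ^ 2 * x3]) :
    ∀ x0 x1 x2 x3 : F, x0 * x0 ^ 2 + x1 * x1 ^ 2 + x2 * x2 ^ 2 + x3 * x3 ^ 2 = 0 →
      Cen K ![x0, x1, x2, x3] := by
  have h2 := two_eq_zero4 hF
  have hω3 : ω ^ 3 = 1 := by linear_combination (ω - 1) * hω
  have hω0 : ω ≠ 0 := by
    intro h
    rw [h] at hω
    simp at hω
  have hω20 : ω ^ 2 ≠ 0 := pow_ne_zero 2 hω0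
  have hmw := hb 1 1 1 1 hw
  have hl := cen_line4 hw hmw 1 (by linear_combination hω + ω * hω3)
  have hp0 : Cen K ![1, 0, 0, ω ^ 2] :=
    cen_congr4 (cen_smul4 hF hω0 hl) (by linear_combination hω - h2)
      (by linear_combination ω * h2) (by linear_combination ω * h2)
      (by linear_combination hω3 - hω + (ω + 1) * h2)
  have s01 : ∀ α : F, Cen K ![1, 0, 0, α] → Cen K ![0, 1, 0, ω ^ 2 * α] := fun α h =>
    cen_congr4 (hb _ _ _ _ h) (mul_zero _) rfl rfl rfl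
  have s12 : ∀ α : F, Cen K ![0, 1, 0, α] → Cen K ![0, 0, 1, ω ^ 2 * α] := fun α h =>
    cen_congr4 (hb _ _ _ _ h) (mul_zero _) rfl rfl rfl
  have s20 : ∀ α : F, Cen K ![0, 0, 1, α] → Cen K ![1, 0, 0, ω * α] := fun α h =>
    cen_congr4 (cen_smul4 hF hω20 (hb _ _ _ _ h)) (by linear_combination hω3) (mul_zero _)
      (mul_zero _) (by linear_combination (ω * α) * hω3)
  have s00 : ∀ α : F, Cen K ![1, 0, 0, α] → Cen K ![1, 0, 0, ω ^ 2 * α] := fun α h =>
    cen_congr4 (s20 _ (s12 _ (s01 _ h))) rfl rfl rfl (by linear_combination (ω ^ 2 * α) * hω3)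
  have hP0 : ∀ α : F, α ≠ 0 → Cen K ![1, 0, 0, α] := by
    intro α hα
    have hp0' := s00 _ hp0
    have hp0'' := s00 _ hp0'
    rcases eq_one_or_omega4 hF hω hα with h | h | h
    · rw [h]
      exact cen_congr4 hp0'' rfl rfl rfl (by linear_combination (ω ^ 3 + 1) * hω3)
    · rw [h]
      exact cen_congr4 hp0' rfl rfl rfl (by linear_combination ω * hω3)
    · rw [h]
      exact hp0
  have hP1 : ∀ α : F, α ≠ 0 → Cen K ![0, 1, 0, α] := fun α hα =>
    cen_congr4 (s01 _ (hP0 (ω * α) (mul_ne_zero hω0 hα))) rfl rfl rfl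
      (by linear_combination α * hω3)
  have hP2 : ∀ α : F, α ≠ 0 → Cen K ![0, 0, 1, α] := fun α hα =>
    cen_congr4 (s12 _ (hP1 (ω * α) (mul_ne_zero hω0 hα))) rfl rfl rfl
      (by linear_combination α * hω3)
  have hQ01 : ∀ α : F, α ≠ 0 → Cen K ![1, α, 0, 0] := fun α hα =>
    cen_congr4 (cen_line4 (hP0 α hα) (hP1 1 one_ne_zero) α (by ring)) (by ring) (by ring)
      (by ring) (by linear_combination α * h2)
  have hQ02 : ∀ α : F, α ≠ 0 → Cen K ![1, 0, α, 0] := fun α hα =>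
    cen_congr4 (cen_line4 (hP0 α hα) (hP2 1 one_ne_zero) α (by ring)) (by ring) (by ring)
      (by ring) (by linear_combination α * h2)
  have hQ12 : ∀ α : F, α ≠ 0 → Cen K ![0, 1, α, 0] := fun α hα =>
    cen_congr4 (cen_line4 (hP1 α hα) (hP2 1 one_ne_zero) α (by ring)) (by ring) (by ring)
      (by ring) (by linear_combination α * h2)
  have sw01 : ∀ α : F, α ≠ 0 → ∀ a b c d : F, Cen K ![a, b, c, d] →
      Cen K ![α ^ 2 * b, α * a, c, d] := by
    intro α hα a b c d h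
    have hα3 := cube_eq_one4 hF hα
    exact cen_congr4 (cen_line4 h (hQ01 α hα) (a + b * α ^ 2) (by ring))
      (by linear_combination a * h2) (by linear_combination b * hα3 + b * h2) (by ring) (by ring)
  have sw12 : ∀ β : F, β ≠ 0 → ∀ a b c d : F, Cen K ![a, b, c, d] →
      Cen K ![a, β ^ 2 * c, β * b, d] := by
    intro β hβ a b c d h
    have hβ3 := cube_eq_one4 hF hβ
    exact cen_congr4 (cen_line4 h (hQ12 β hβ) (b + c * β ^ 2) (by ring))
      (by ring) (by linear_combination b * h2) (by linear_combination c * hβ3 + c * h2) (by ring)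
  have sw23 : ∀ γ : F, γ ≠ 0 → ∀ a b c d : F, Cen K ![a, b, c, d] →
      Cen K ![a, b, γ ^ 2 * d, γ * c] := by
    intro γ hγ a b c d h
    have hγ3 := cube_eq_one4 hF hγ
    exact cen_congr4 (cen_line4 h (hP2 γ hγ) (c + d * γ ^ 2) (by ring))
      (by ring) (by ring) (by linear_combination c * h2) (by linear_combination d * hγ3 + d * h2)
  have hW4 : ∀ α β γ : F, α ≠ 0 → β ≠ 0 → γ ≠ 0 →
      Cen K ![α ^ 2, β ^ 2, γ ^ 2, γ * (β * α)] := by
    intro α β γ hα hβ hγ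
    have h1 := sw01 α hα 1 1 1 1 hw
    have h2' := sw12 β hβ _ _ _ _ h1
    have h3 := sw23 γ hγ _ _ _ _ h2'
    exact cen_congr4 h3 (mul_one _) (mul_one _) (mul_one _) (by ring)
  have e0 : (0 : Fin 4 → F) = ![0, 0, 0, 0] := by
    ext i; fin_cases i <;> rfl
  intro x0 x1 x2 x3 hiso
  by_cases h0 : x0 = 0
  · by_cases h1 : x1 = 0
    · by_cases h2' : x2 = 0
      · by_cases h3 : x3 = 0
        · rw [h0, h1, h2', h3, ← e0]
          exact cen_zero K
        · exact absurd (by simpa [h0, h1, h2'] using hiso) h3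
      · by_cases h3 : x3 = 0
        · exact absurd (by simpa [h0, h1, h3] using hiso) h2'
        · rw [h0, h1]
          exact cen_congr4 (cen_smul4 hF h2' (hP2 (x2⁻¹ * x3) (mul_ne_zero (inv_ne_zero h2') h3)))
            (mul_zero _) (mul_zero _) (mul_one _) (mul_inv_cancel_left₀ h2' x3)
    · by_cases h2' : x2 = 0
      · by_cases h3 : x3 = 0
        · exact absurd (by simpa [h0, h2', h3] using hiso) h1
        · rw [h0, h2']
          exact cen_congr4 (cen_smul4 hF h1 (hP1 (x1⁻¹ * x3) (mul_ne_zero (inv_ne_zero h1) h3)))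
            (mul_zero _) (mul_one _) (mul_zero _) (mul_inv_cancel_left₀ h1 x3)
      · by_cases h3 : x3 = 0
        · rw [h0, h3]
          exact cen_congr4 (cen_smul4 hF h1 (hQ12 (x1⁻¹ * x2) (mul_ne_zero (inv_ne_zero h1) h2')))
            (mul_zero _) (mul_one _) (mul_inv_cancel_left₀ h1 x2) (mul_zero _)
        · exfalso
          have c1 := cube_eq_one4 hF h1
          have c2 := cube_eq_one4 hF h2'
          have c3 := cube_eq_one4 hF h3
          rw [h0] at hiso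
          have h10 : (1 : F) = 0 := by linear_combination hiso - c1 - c2 - c3 - h2
          exact one_ne_zero h10
  · by_cases h1 : x1 = 0
    · by_cases h2' : x2 = 0
      · by_cases h3 : x3 = 0
        · exact absurd (by simpa [h1, h2', h3] using hiso) h0
        · rw [h1, h2']
          exact cen_congr4 (cen_smul4 hF h0 (hP0 (x0⁻¹ * x3) (mul_ne_zero (inv_ne_zero h0) h3)))
            (mul_one _) (mul_zero _) (mul_zero _) (mul_inv_cancel_left₀ h0 x3)
      · by_cases h3 : x3 = 0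
        · rw [h1, h3]
          exact cen_congr4 (cen_smul4 hF h0 (hQ02 (x0⁻¹ * x2) (mul_ne_zero (inv_ne_zero h0) h2')))
            (mul_one _) (mul_zero _) (mul_inv_cancel_left₀ h0 x2) (mul_zero _)
        · exfalso
          have c0 := cube_eq_one4 hF h0
          have c2 := cube_eq_one4 hF h2'
          have c3 := cube_eq_one4 hF h3
          rw [h1] at hiso
          have h10 : (1 : F) = 0 := by linear_combination hiso - c0 - c2 - c3 - h2
          exact one_ne_zero h10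
    · by_cases h2' : x2 = 0
      · by_cases h3 : x3 = 0
        · rw [h2', h3]
          exact cen_congr4 (cen_smul4 hF h0 (hQ01 (x0⁻¹ * x1) (mul_ne_zero (inv_ne_zero h0) h1)))
            (mul_one _) (mul_inv_cancel_left₀ h0 x1) (mul_zero _) (mul_zero _)
        · exfalso
          have c0 := cube_eq_one4 hF h0
          have c1 := cube_eq_one4 hF h1
          have c3 := cube_eq_one4 hF h3
          rw [h2'] at hiso
          have h10 : (1 : F) = 0 := by linear_combination hiso - c0 - c1 - c3 - h2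
          exact one_ne_zero h10
      · by_cases h3 : x3 = 0
        · exfalso
          have c0 := cube_eq_one4 hF h0
          have c1 := cube_eq_one4 hF h1
          have c2 := cube_eq_one4 hF h2'
          rw [h3] at hiso
          have h10 : (1 : F) = 0 := by linear_combination hiso - c0 - c1 - c2 - h2
          exact one_ne_zero h10
        · have c0 := cube_eq_one4 hF h0
          have c1 := cube_eq_one4 hF h1
          have c2 := cube_eq_one4 hF h2'
          have c3 := cube_eq_one4 hF h3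
          have hμ : x0 * x1 * x2 * x3 ≠ 0 := mul_ne_zero (mul_ne_zero (mul_ne_zero h0 h1) h2') h3
          have hα : x1 * x2 * x3 ≠ 0 := mul_ne_zero (mul_ne_zero h1 h2') h3
          have hβ : x0 * x2 * x3 ≠ 0 := mul_ne_zero (mul_ne_zero h0 h2') h3
          have hγ : x0 * x1 * x3 ≠ 0 := mul_ne_zero (mul_ne_zero h0 h1) h3
          exact cen_congr4 (cen_smul4 hF hμ (hW4 _ _ _ hα hβ hγ))
            (by linear_combination x0 * (x2 ^ 3 * x3 ^ 3 * c1 + x3 ^ 3 * c2 + c3))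
            (by linear_combination x1 * (x2 ^ 3 * x3 ^ 3 * c0 + x3 ^ 3 * c2 + c3))
            (by linear_combination x2 * (x1 ^ 3 * x3 ^ 3 * c0 + x3 ^ 3 * c1 + c3))
            (by linear_combination (x3 *
              (x1 ^ 3 * x2 ^ 3 * x3 ^ 3 * c0 + x2 ^ 3 * x3 ^ 3 * c1 + x3 ^ 3 * c2 + c3)))

/-- **`SU_4(2)` is generated by two elements** (a transvection and a monomial element of
order 9). -/
theorem su42_two_gen {F : Type u} [Field F] [Fintype F] (hF : Fintype.card F = 2 ^ 2) :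
    ∃ a b : ↥(Cfsg.SU 4 F 2), Subgroup.closure ({a, b} : Set ↥(Cfsg.SU 4 F 2)) = ⊤ := by
  obtain ⟨ω, hω⟩ := exists_omega4 hF
  have h2 := two_eq_zero4 hF
  have hω3 : ω ^ 3 = 1 := by linear_combination (ω - 1) * hω
  have hw0 : Cfsg.hermForm 4 F 2 ![(1 : F), 1, 1, 1] ![1, 1, 1, 1] = 0 := by
    rw [herm4]; linear_combination 2 * h2
  have hc1 : (1 : F) ^ 2 = -1 := by linear_combination h2
  let a : ↥(Cfsg.SU 4 F 2) := suMk (Cfsg.unitaryTransvection 4 2 ![(1 : F), 1, 1, 1] 1)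
    (det_utransv _ 1 hw0) (isHermIso_utransv hF _ 1 hw0 hc1)
  let b : ↥(Cfsg.SU 4 F 2) := suMk (Mb ω) (Mb_det hω3) (Mb_iso hω3)
  refine ⟨a, b, ?_⟩
  have haK : a ∈ Subgroup.closure ({a, b} : Set ↥(Cfsg.SU 4 F 2)) :=
    Subgroup.subset_closure (by simp)
  have hbK : b ∈ Subgroup.closure ({a, b} : Set ↥(Cfsg.SU 4 F 2)) :=
    Subgroup.subset_closure (by simp)
  apply top_of_cen hF
  intro v hv
  rw [vec4_eta v] at hv ⊢
  rw [herm4] at hv
  refine cen_all hF _ hω ⟨hw0, a, haK, rfl⟩ ?_ _ _ _ _ hv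
  intro x0 x1 x2 x3 h
  have h' := cen_act hbK h
  rw [show sm b = Mb ω from rfl, Mb_mulVec] at h'
  exact h'

end Four2

end Cfsg.Agent.Lib.Helper82.SUG
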